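import Mathlib
import Cfsg.Agent.Lib.Helper42.ReeSpStmt

/-!
# Automorphisms of the small Ree group: statement file (S2127)

`Out(²G₂(q))` has order `2m+1` (`q = 3^(2m+1)`).  Every automorphism is the product of an inner
automorphism and a field automorphism: align the Sylow 3-subgroup `U = {x(t,u,v)}` and the torus
`H = {e(s)}` (Sylow + the doubly transitive geometry), read off a field automorphism from the
action on the centre `Z = {x(0,0,v)}` of `U`, and show that an automorphism fixing `H` and `Z`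
pointwise and normalizing `U` is the identity on `U` (rigidity), hence on the whole group.

Pieces `GEOA GEOB GEOC GLOB SYLA ALIGN` are about an abstract finite group with the axioms
`Ax`, `SylNC`, `NHC` of `ReeSpStmt`; pieces `TORUS RIGA RIGB RIGC INJ` about a group with the
parametrization `APar`; `CARD` counts the automorphisms of the field.
-/

set_option autoImplicit false

namespace Cfsg.Agent.Lib.Helper42.ReeAutStmt

open Cfsg.Agent.Lib.Helper42.ReeSpStmt

universe u v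

/-- `g` normalizes `U` (inclusion form; the group is finite) -/
def NU {G : Type u} [Group G] (U : Subgroup G) (g : G) : Prop := ∀ u ∈ U, g * u * g⁻¹ ∈ U

/-- the doubly transitive geometry: `N(U) = U H`, an element `n ∉ N(U)` normalizing `H`,
`G = N(U) ∪ U n N(U)`, and `N(U) ∩ n N(U) n⁻¹ = H` -/
structure Geo (G : Type u) [Group G] (U H : Subgroup G) (n : G) : Prop where
  nuB : ∀ g : G, NU U g → ∃ u ∈ U, ∃ h ∈ H, g = u * h
  hN : ∀ h ∈ H, NU U h
  fpf : ∀ u ∈ U, (∀ h ∈ H, u⁻¹ * h * u ∈ H) → u = 1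
  n_not : ¬ NU U n
  n_H : ∀ h ∈ H, n⁻¹ * h * n ∈ H
  trans : ∀ g : G, NU U g ∨ ∃ u ∈ U, NU U (n⁻¹ * u⁻¹ * g)
  stab : ∀ g : G, NU U g → NU U (n⁻¹ * g * n) → g ∈ H

/-- GEOA: `N(U) = U H`, no nonidentity element of `U` normalizes `H`, and some element
normalizing `H` does not normalize `U` -/
def GeoAP : Prop :=
  ∀ (G : Type u) [Group G] [Finite G] (U H A : Subgroup G) (K : Type v) [Field K] [Fintype K]
    (m : ℕ), Ax G U H A K m → SylNC G U H m → NHC G H m →
      (∀ g : G, NU U g → ∃ u ∈ U, ∃ h ∈ H, g = u * h) ∧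
      (∀ u ∈ U, (∀ h ∈ H, u⁻¹ * h * u ∈ H) → u = 1) ∧
      ∃ n : G, ¬ NU U n ∧ ∀ h ∈ H, n⁻¹ * h * n ∈ H

/-- GEOB: `U` is transitive on the conjugates of `U` other than `U` -/
def GeoBP : Prop :=
  ∀ (G : Type u) [Group G] [Finite G] (U H A : Subgroup G) (K : Type v) [Field K] [Fintype K]
    (m : ℕ), Ax G U H A K m → SylNC G U H m →
      ∀ n : G, ¬ NU U n → ∀ g : G, NU U g ∨ ∃ u ∈ U, NU U (n⁻¹ * u⁻¹ * g)

/-- GEOC: `N(U) ∩ n N(U) n⁻¹ = H` -/
def GeoCP : Prop :=
  ∀ (G : Type u) [Group G] [Finite G] (U H A : Subgroup G) (K : Type v) [Field K] [Fintype K]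
    (m : ℕ), Ax G U H A K m → SylNC G U H m →
      ∀ n : G, ¬ NU U n → (∀ h ∈ H, n⁻¹ * h * n ∈ H) →
        ∀ g : G, NU U g → NU U (n⁻¹ * g * n) → g ∈ H

/-- GLOB: an automorphism of a simple group fixing `U` and `H` pointwise is trivial -/
def GlobP : Prop :=
  ∀ (G : Type u) [Group G] [Finite G] (U H : Subgroup G) (n : G), Geo G U H n →
    IsSimpleGroup G → ∀ γ : MulAut G, (∀ u ∈ U, γ u = u) → (∀ h ∈ H, γ h = h) → γ = 1

/-- SYLA: `U` is a Sylow 3-subgroup, so its image under an automorphism is a conjugate -/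
def SylAP : Prop :=
  ∀ (G : Type u) [Group G] [Finite G] (U H A : Subgroup G) (K : Type v) [Field K] [Fintype K]
    (m : ℕ), Ax G U H A K m → ∀ α : MulAut G, ∃ g : G, ∀ u ∈ U, g⁻¹ * α u * g ∈ U

/-- ALIGN: an automorphism can be corrected by an inner one to normalize `U` and `H` -/
def AlignP : Prop :=
  ∀ (G : Type u) [Group G] [Finite G] (U H : Subgroup G) (n : G), Geo G U H n →
    ∀ α : MulAut G, (∃ g : G, ∀ u ∈ U, g⁻¹ * α u * g ∈ U) →
      ∃ g : G, (∀ u ∈ U, g⁻¹ * α u * g ∈ U) ∧ (∀ h ∈ H, g⁻¹ * α h * g ∈ H)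

/-! ## the parametrized pieces -/

/-- the parametrization of `U = {x t u v}` and `H = {e s}` inside `G` -/
structure APar (G : Type u) [Group G] (K : Type v) [Field K] [Fintype K] (φ : K →+* K)
    (x : K → K → K → G) (e : Kˣ → G) : Prop where
  x_inj : ∀ t u v t' u' v', x t u v = x t' u' v' → t = t' ∧ u = u' ∧ v = v'
  x_mul : ∀ t u v t' u' v', x t u v * x t' u' v' =
    x (t + t') (u + u' - t * φ t' ^ 3) (v + v' - u * t' - t ^ 2 * φ t' ^ 3 + t * t' * φ t' ^ 3)
  e_inj : Function.Injective e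
  e_mul : ∀ s s' : Kˣ, e (s * s') = e s * e s'
  e_x : ∀ (s : Kˣ) (t u v : K),
    e s * x t u v =
      x ((s : K) ^ 2 / φ (s : K) ^ 3 * t) (φ (s : K) ^ 3 / (s : K) * u) ((s : K) * v) * e s
  three : (3 : K) = 0
  h3 : ∀ a : K, φ (φ a) ^ 3 = a
  hζ : ∃ ζ : K, φ ζ ^ 3 ≠ ζ

/-- the field automorphisms act on the parameters -/
structure FPar (G : Type u) [Group G] (K : Type v) [Field K] (x : K → K → K → G) (e : Kˣ → G)
    (Φ : (K ≃+* K) →* MulAut G) : Prop where
  f_x : ∀ (σ : K ≃+* K) (t u v : K), Φ σ (x t u v) = x (σ t) (σ u) (σ v)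
  f_e : ∀ (σ : K ≃+* K) (s s' : Kˣ), (s' : K) = σ (s : K) → Φ σ (e s) = e s'

/-- TORUS: an automorphism normalizing `U` and `H` acts on `Z = {x 0 0 v}` and on `H` as a
field automorphism `σ` followed by the conjugation by `e c` -/
def TorusP : Prop :=
  ∀ (G : Type u) [Group G] [Finite G] (K : Type v) [Field K] [Fintype K] (φ : K →+* K)
    (x : K → K → K → G) (e : Kˣ → G), APar G K φ x e →
    ∀ β : MulAut G, (∀ t u v, ∃ t' u' v', β (x t u v) = x t' u' v') →
      (∀ s : Kˣ, ∃ s' : Kˣ, β (e s) = e s') →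
      ∃ (c : Kˣ) (σ : K ≃+* K), (∀ v, β (x 0 0 v) = x 0 0 ((c : K) * σ v)) ∧
        ∀ s s' : Kˣ, (s' : K) = σ (s : K) → β (e s) = e s'

/-- RIGA: an automorphism normalizing `U` and fixing `H` and `Z` pointwise is linear on
`U/A` and on `A/Z` (`A = {x 0 u v}`), and does not move the last coordinate on `A` -/
def RigAP : Prop :=
  ∀ (G : Type u) [Group G] [Finite G] (K : Type v) [Field K] [Fintype K] (φ : K →+* K)
    (x : K → K → K → G) (e : Kˣ → G), APar G K φ x e →
    ∀ γ : MulAut G, (∀ t u v, ∃ t' u' v', γ (x t u v) = x t' u' v') →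
      (∀ s : Kˣ, γ (e s) = e s) → (∀ v, γ (x 0 0 v) = x 0 0 v) →
      ∃ b d : K, (∀ t u v, ∃ u' v', γ (x t u v) = x (b * t) u' v') ∧
        ∀ u v, γ (x 0 u v) = x 0 (d * u) v

/-- RIGB: the two scalars are `1` (commutator relation and cube relation) -/
def RigBP : Prop :=
  ∀ (G : Type u) [Group G] [Finite G] (K : Type v) [Field K] [Fintype K] (φ : K →+* K)
    (x : K → K → K → G) (e : Kˣ → G), APar G K φ x e →
    ∀ γ : MulAut G, (∀ v, γ (x 0 0 v) = x 0 0 v) →
      ∀ b d : K, (∀ t u v, ∃ u' v', γ (x t u v) = x (b * t) u' v') →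
        (∀ u v, γ (x 0 u v) = x 0 (d * u) v) → b = 1 ∧ d = 1

/-- RIGC: an automorphism fixing `H` and `A` pointwise and acting trivially on `U/A` fixes
`U` pointwise -/
def RigCP : Prop :=
  ∀ (G : Type u) [Group G] [Finite G] (K : Type v) [Field K] [Fintype K] (φ : K →+* K)
    (x : K → K → K → G) (e : Kˣ → G), APar G K φ x e →
    ∀ γ : MulAut G, (∀ s : Kˣ, γ (e s) = e s) → (∀ u v, γ (x 0 u v) = x 0 u v) →
      (∀ t u v, ∃ u' v', γ (x t u v) = x t u' v') → ∀ t u v, γ (x t u v) = x t u v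

/-- INJ: a field automorphism that is inner is trivial -/
def InjP : Prop :=
  ∀ (G : Type u) [Group G] [Finite G] (K : Type v) [Field K] [Fintype K] (φ : K →+* K)
    (x : K → K → K → G) (e : Kˣ → G), APar G K φ x e →
    ∀ Φ : (K ≃+* K) →* MulAut G, FPar G K x e Φ →
      (∀ g : G, (∀ t u v, ∃ t' u' v', g * x t u v * g⁻¹ = x t' u' v') →
        ∃ t u v, ∃ s : Kˣ, g = x t u v * e s) →
      ∀ (σ : K ≃+* K) (g : G), Φ σ = MulAut.conj g → σ = 1

/-- CARD: the field with `3^(2m+1)` elements has `2m+1` automorphisms -/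
def CardP : Prop :=
  ∀ (K : Type v) [Field K] [Fintype K] (m : ℕ), Fintype.card K = 3 ^ (2 * m + 1) →
    Nat.card (K ≃+* K) = 2 * m + 1

end Cfsg.Agent.Lib.Helper42.ReeAutStmt
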