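import Mathlib
import Cfsg.Prelude.Def_LieTypeChar

/-!
Statement S2363 (a group of Lie type in characteristic `p` with Sylow `p`-subgroups of order
`p ^ k` has order `< p ^ (3 k)`, and `< p ^ (8 k / 3)` unless it is `PSL₂(p ^ k)`):
the core arithmetic lemma, the statements of the pieces (one per family) and the assembly.
-/

set_option autoImplicit false

namespace Cfsg.Agent.Lib.Helper42.LieOrdStmt

universe u

/-- both bounds -/
def Strong (p : ℕ) (G : Type*) [Group G] : Prop :=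
  Nat.card G < p ^ (3 * (Nat.card G).factorization p) ∧
    Nat.card G ^ 3 < p ^ (8 * (Nat.card G).factorization p)

/-- the conclusion of S2363 -/
def Concl (p : ℕ) (G : Type*) [Group G] : Prop :=
  Nat.card G < p ^ (3 * (Nat.card G).factorization p) ∧
    ((¬ ∃ (F : Type) (_ : Field F) (_ : Fintype F),
        Fintype.card F = p ^ (Nat.card G).factorization p ∧
          Nonempty (G ≃* Matrix.ProjectiveSpecialLinearGroup (Fin 2) F)) →
      Nat.card G ^ 3 < p ^ (8 * (Nat.card G).factorization p))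

theorem Strong.concl {p : ℕ} {G : Type*} [Group G] (h : Strong p G) : Concl p G :=
  ⟨h.1, fun _ => h.2⟩

/-- The core arithmetic: if `d * |G| = q ^ N * P` with `q = p ^ f`, `p ∤ d`, `p ∤ P`,
`P < q ^ D`, `D ≤ 2 N` and `3 D ≤ 5 N`, then the `p`-part of `|G|` is `q ^ N`, and both bounds
hold. -/
theorem strong_of_formula {G : Type*} [Group G] (p f : ℕ) (hp : p.Prime) (d N D P : ℕ)
    (hd : d * Nat.card G = (p ^ f) ^ N * P) (hpd : ¬ p ∣ d) (hpP : ¬ p ∣ P)
    (hPD : P < (p ^ f) ^ D) (hD1 : D ≤ 2 * N) (hD2 : 3 * D ≤ 5 * N) :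
    (Nat.card G).factorization p = f * N ∧ Strong p G := by
  have hd0 : d ≠ 0 := by
    rintro rfl
    exact hpd (dvd_zero p)
  have hP0 : P ≠ 0 := by
    rintro rfl
    exact hpP (dvd_zero p)
  have hq0 : 0 < p ^ f := pow_pos hp.pos f
  have hg0 : Nat.card G ≠ 0 := by
    intro h
    rw [h, mul_zero] at hd
    exact (mul_ne_zero (pow_ne_zero N hq0.ne') hP0) hd.symm
  have hfac : (Nat.card G).factorization p = f * N := by
    have h1 : (d * Nat.card G).factorization p = ((p ^ f) ^ N * P).factorization p := by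
      rw [hd]
    rw [Nat.factorization_mul hd0 hg0, Nat.factorization_mul (pow_ne_zero N hq0.ne') hP0,
      ← pow_mul, Nat.factorization_pow, Finsupp.add_apply, Finsupp.add_apply, Finsupp.smul_apply,
      hp.factorization_self, Nat.factorization_eq_zero_of_not_dvd hpd,
      Nat.factorization_eq_zero_of_not_dvd hpP] at h1
    simpa using h1
  have hle : Nat.card G ≤ (p ^ f) ^ N * P := by
    rw [← hd]
    exact Nat.le_mul_of_pos_left _ (Nat.pos_of_ne_zero hd0)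
  have hlt : Nat.card G < (p ^ f) ^ (N + D) := by
    rw [pow_add]
    exact lt_of_le_of_lt hle (Nat.mul_lt_mul_of_pos_left hPD (pow_pos hq0 N))
  refine ⟨hfac, ?_, ?_⟩
  · rw [hfac]
    calc Nat.card G < (p ^ f) ^ (N + D) := hlt
      _ ≤ (p ^ f) ^ (3 * N) := Nat.pow_le_pow_right hq0 (by omega)
      _ = p ^ (3 * (f * N)) := by rw [← pow_mul]; congr 1; ring
  · rw [hfac]
    calc Nat.card G ^ 3 < ((p ^ f) ^ (N + D)) ^ 3 := Nat.pow_lt_pow_left hlt (by norm_num)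
      _ = (p ^ f) ^ (3 * N + 3 * D) := by rw [← pow_mul]; congr 1; ring
      _ ≤ (p ^ f) ^ (8 * N) := Nat.pow_le_pow_right hq0 (by omega)
      _ = p ^ (8 * (f * N)) := by rw [← pow_mul]; congr 1; ring

/-- The first bound only (needs just `D ≤ 2 N`): used for `PSL₂`. -/
theorem weak_of_formula {G : Type*} [Group G] (p f : ℕ) (hp : p.Prime) (d N D P : ℕ)
    (hd : d * Nat.card G = (p ^ f) ^ N * P) (hpd : ¬ p ∣ d) (hpP : ¬ p ∣ P)
    (hPD : P < (p ^ f) ^ D) (hD1 : D ≤ 2 * N) :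
    (Nat.card G).factorization p = f * N ∧
      Nat.card G < p ^ (3 * (Nat.card G).factorization p) := by
  have hd0 : d ≠ 0 := by
    rintro rfl
    exact hpd (dvd_zero p)
  have hP0 : P ≠ 0 := by
    rintro rfl
    exact hpP (dvd_zero p)
  have hq0 : 0 < p ^ f := pow_pos hp.pos f
  have hg0 : Nat.card G ≠ 0 := by
    intro h
    rw [h, mul_zero] at hd
    exact (mul_ne_zero (pow_ne_zero N hq0.ne') hP0) hd.symm
  have hfac : (Nat.card G).factorization p = f * N := by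
    have h1 : (d * Nat.card G).factorization p = ((p ^ f) ^ N * P).factorization p := by
      rw [hd]
    rw [Nat.factorization_mul hd0 hg0, Nat.factorization_mul (pow_ne_zero N hq0.ne') hP0,
      ← pow_mul, Nat.factorization_pow, Finsupp.add_apply, Finsupp.add_apply, Finsupp.smul_apply,
      hp.factorization_self, Nat.factorization_eq_zero_of_not_dvd hpd,
      Nat.factorization_eq_zero_of_not_dvd hpP] at h1
    simpa using h1
  have hle : Nat.card G ≤ (p ^ f) ^ N * P := by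
    rw [← hd]
    exact Nat.le_mul_of_pos_left _ (Nat.pos_of_ne_zero hd0)
  have hlt : Nat.card G < (p ^ f) ^ (N + D) := by
    rw [pow_add]
    exact lt_of_le_of_lt hle (Nat.mul_lt_mul_of_pos_left hPD (pow_pos hq0 N))
  refine ⟨hfac, ?_⟩
  rw [hfac]
  calc Nat.card G < (p ^ f) ^ (N + D) := hlt
    _ ≤ (p ^ f) ^ (3 * N) := Nat.pow_le_pow_right hq0 (by omega)
    _ = p ^ (3 * (f * N)) := by rw [← pow_mul]; congr 1; ring

/-- a natural number with a power that is a power of `p` is a power of `p` -/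
theorem exists_pow_of_pow_eq {p : ℕ} (hp : p.Prime) (k e q : ℕ) (hk : 1 ≤ k) (h : q ^ k = p ^ e) :
    ∃ f : ℕ, q = p ^ f := by
  have h1 : q ∣ p ^ e := by
    rw [← h]
    exact dvd_pow_self q (by omega)
  obtain ⟨f, -, hf⟩ := (Nat.dvd_prime_pow hp).mp h1
  exact ⟨f, hf⟩

/-- `p ∤ q ^ i - 1` for `q` a power of `p`, `q ^ i ≠ 1` not needed -/
theorem not_dvd_pow_sub_one {p : ℕ} (hp : p.Prime) (f i : ℕ) (hf : 1 ≤ f) (hi : 1 ≤ i) :
    ¬ p ∣ (p ^ f) ^ i - 1 := by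
  intro h
  have h1 : p ∣ (p ^ f) ^ i := by
    rw [← pow_mul]
    exact dvd_pow_self p (Nat.mul_ne_zero (by omega) (by omega))
  have h2 : 1 ≤ (p ^ f) ^ i := Nat.one_le_pow _ _ (pow_pos hp.pos f)
  have h3 : p ∣ (p ^ f) ^ i - ((p ^ f) ^ i - 1) := Nat.dvd_sub h1 h
  have h4 : (p ^ f) ^ i - ((p ^ f) ^ i - 1) = 1 := by omega
  rw [h4] at h3
  exact hp.one_lt.ne' (Nat.dvd_one.mp h3)

/-- `p ∤ q ^ i + 1` for `q` a power of `p` -/
theorem not_dvd_pow_add_one {p : ℕ} (hp : p.Prime) (f i : ℕ) (hf : 1 ≤ f) (hi : 1 ≤ i) :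
    ¬ p ∣ (p ^ f) ^ i + 1 := by
  intro h
  have h1 : p ∣ (p ^ f) ^ i := by
    rw [← pow_mul]
    exact dvd_pow_self p (Nat.mul_ne_zero (by omega) (by omega))
  have h3 : p ∣ 1 := (Nat.dvd_add_right h1).mp h
  exact hp.one_lt.ne' (Nat.dvd_one.mp h3)

/-- `(q ^ a - 1) (q ^ b + 1) < q ^ (a + b)` for `a ≤ b` -/
theorem sub_one_mul_add_one_lt (q a b : ℕ) (hq : 2 ≤ q) (hab : a ≤ b) :
    (q ^ a - 1) * (q ^ b + 1) < q ^ (a + b) := by
  have h1 : 1 ≤ q ^ a := Nat.one_le_pow _ _ (by omega)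
  have h2 : q ^ a ≤ q ^ b := Nat.pow_le_pow_right (by omega) hab
  obtain ⟨x, hx⟩ : ∃ x, q ^ a = x + 1 := ⟨q ^ a - 1, by omega⟩
  rw [pow_add, hx]
  simp only [Nat.add_sub_cancel]
  rw [hx] at h2
  nlinarith

/-! ### the pieces -/

/-- L: `PSL_n(q)` -/
def PSLStmt : Prop :=
  ∀ (G : Type u) [Group G] [Finite G] (p : ℕ), p.Prime → Cfsg.IsPSLChar p G → Concl p G

/-- S: `PSp_{2m}(q)` -/
def PSpStmt : Prop :=
  ∀ (G : Type u) [Group G] [Finite G] (p : ℕ), p.Prime → Cfsg.IsPSpChar p G → Strong p G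

/-- U: `PSU_n(q)` -/
def PSUStmt : Prop :=
  ∀ (G : Type u) [Group G] [Finite G] (p : ℕ), p.Prime → Cfsg.IsPSUChar p G → Strong p G

/-- OO: `PΩ_{2m+1}(q)` -/
def POmegaOddStmt : Prop :=
  ∀ (G : Type u) [Group G] [Finite G] (p : ℕ), p.Prime → Cfsg.IsPOmegaOddChar p G → Strong p G

/-- OP: `PΩ⁺_{2m}(q)` -/
def POmegaPlusStmt : Prop :=
  ∀ (G : Type u) [Group G] [Finite G] (p : ℕ), p.Prime → Cfsg.IsPOmegaPlusChar p G → Strong p G

/-- OM: `PΩ⁻_{2m}(q)` -/
def POmegaMinusStmt : Prop :=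
  ∀ (G : Type u) [Group G] [Finite G] (p : ℕ), p.Prime → Cfsg.IsPOmegaMinusChar p G → Strong p G

/-- EX: the Chevalley groups of types G₂, F₄, E₆, E₇, E₈ -/
def ExcStmt : Prop :=
  ∀ (G : Type u) [Group G] [Finite G] (p : ℕ), p.Prime → Cfsg.IsExceptionalChevChar p G →
    Strong p G

/-- TW: `²E₆(q)` and `³D₄(q)` -/
def TwStmt : Prop :=
  ∀ (G : Type u) [Group G] [Finite G] (p : ℕ), p.Prime → Cfsg.IsTwistedE6D4Char p G → Strong p G

/-- SZ: the Suzuki groups -/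
def SzStmt : Prop :=
  ∀ (G : Type u) [Group G] [Finite G], Cfsg.Lie.IsoSuzuki G → Strong 2 G

/-- the order of `²F₄(q)` (statement S1068, for fields in `Type`) -/
def Ord2F4 : Prop :=
  ∀ (K : Type) [Field K] [Fintype K] (m : ℕ), Fintype.card K = 2 ^ (2 * m + 1) →
    Nat.card ↥(Cfsg.Lie.twistedF4 K (2 ^ m)) =
      (2 ^ (2 * m + 1)) ^ 12 * (2 ^ (2 * m + 1) - 1) * ((2 ^ (2 * m + 1)) ^ 3 + 1) *
        ((2 ^ (2 * m + 1)) ^ 4 - 1) * ((2 ^ (2 * m + 1)) ^ 6 + 1)

/-- F4: the large Ree groups, given their order -/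
def F4Stmt : Prop :=
  Ord2F4 → ∀ (G : Type u) [Group G] [Finite G], Cfsg.Lie.Iso2F4 G → Strong 2 G

/-- the order of `²G₂(q)` (statement S1069, for fields in `Type`) -/
def OrdRee : Prop :=
  ∀ (K : Type) [Field K] [Fintype K] (m : ℕ), Fintype.card K = 3 ^ (2 * m + 1) →
    Nat.card ↥(Cfsg.Lie.twistedG2 K (3 ^ m)) =
      (3 ^ (2 * m + 1)) ^ 3 * (3 ^ (2 * m + 1) - 1) * ((3 ^ (2 * m + 1)) ^ 3 + 1)

/-- RE: the small Ree groups, given their order -/
def ReeStmt : Prop :=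
  OrdRee → ∀ (G : Type u) [Group G] [Finite G], Cfsg.Lie.IsoRee G → Strong 3 G

/-- the assembly -/
theorem assemble (hL : PSLStmt.{u}) (hS : PSpStmt.{u}) (hU : PSUStmt.{u})
    (hOO : POmegaOddStmt.{u}) (hOP : POmegaPlusStmt.{u}) (hOM : POmegaMinusStmt.{u})
    (hEX : ExcStmt.{u}) (hTW : TwStmt.{u}) (hSZ : SzStmt.{u}) (hF4 : F4Stmt.{u})
    (hRE : ReeStmt.{u}) (h1 : Ord2F4) (h2 : OrdRee)
    {G : Type u} [Group G] [Finite G] (p : ℕ) (hp : p.Prime) (hG : Cfsg.IsLieTypeChar p G) :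
    Concl p G := by
  rcases hG with h | h | h | h | h | h | h | h | h | h | h
  · exact hL G p hp h
  · exact (hS G p hp h).concl
  · exact (hU G p hp h).concl
  · exact (hOO G p hp h).concl
  · exact (hOP G p hp h).concl
  · exact (hOM G p hp h).concl
  · exact (hEX G p hp h).concl
  · exact (hTW G p hp h).concl
  · obtain ⟨rfl, h⟩ := h
    exact (hSZ G h).concl
  · obtain ⟨rfl, h⟩ := h
    exact (hF4 h1 G h).concl
  · obtain ⟨rfl, h⟩ := h
    exact (hRE h2 G h).concl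

end Cfsg.Agent.Lib.Helper42.LieOrdStmt
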