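import Mathlib
import Cfsg.Prelude.Def_KGroupFacts
import Cfsg.Agent.Lib.Helper42.ReeAutStmt

/-!
# Automorphisms of the small Ree group: assembly (S2127)
-/

set_option autoImplicit false

namespace Cfsg.Agent.Lib.Helper42.ReeAutAsm

open Cfsg.Agent.Lib.Helper42.ReeSpStmt Cfsg.Agent.Lib.Helper42.ReeAutStmt

universe u v

/-- a criterion for the order of the outer automorphism group (as in helper65's
`SzAut.card_out_eq`) -/
theorem card_out_eq {G : Type u} {A : Type v} [Group G] [Group A] (Φ : A →* MulAut G)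
    (h1 : ∀ α : MulAut G, ∃ (g : G) (a : A), α = MulAut.conj g * Φ a)
    (h2 : ∀ a, Φ a ∈ Cfsg.Inn G → a = 1) : Nat.card (Cfsg.Out G) = Nat.card A := by
  symm
  apply Nat.card_congr
  refine Equiv.ofBijective (fun a => (QuotientGroup.mk (Φ a) : Cfsg.Out G)) ⟨?_, ?_⟩
  · intro a b hab
    have h3 : (Φ a)⁻¹ * Φ b ∈ Cfsg.Inn G := QuotientGroup.eq.mp hab
    rw [← map_inv, ← map_mul] at h3
    have h4 := h2 _ h3
    exact (inv_mul_eq_one.mp h4)
  · intro y
    obtain ⟨α, rfl⟩ := QuotientGroup.mk_surjective y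
    obtain ⟨g, a, rfl⟩ := h1 α
    refine ⟨a, ?_⟩
    apply QuotientGroup.eq.mpr
    have h5 : (Φ a)⁻¹ * (MulAut.conj g * Φ a) = (Φ a)⁻¹ * MulAut.conj g * (Φ a)⁻¹⁻¹ := by
      rw [inv_inv, mul_assoc]
    rw [h5]
    exact (Cfsg.innNormal G).conj_mem _ ⟨g, rfl⟩ _

/-- an automorphism of a finite group mapping a subgroup into itself maps it onto itself -/
theorem maps_inv {G : Type u} [Group G] [Finite G] (δ : MulAut G) (U : Subgroup G)
    (h : ∀ u ∈ U, δ u ∈ U) : ∀ u ∈ U, δ⁻¹ u ∈ U := by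
  let f : U → U := fun u => ⟨δ u, h u u.2⟩
  have hf : Function.Injective f := by
    intro a b hab
    have : δ a = δ b := congrArg Subtype.val hab
    exact Subtype.ext (δ.injective this)
  have hs : Function.Surjective f := Finite.injective_iff_surjective.mp hf
  intro u hu
  obtain ⟨w, hw⟩ := hs ⟨u, hu⟩
  have hw' : δ w = u := congrArg Subtype.val hw
  rw [← hw']
  show δ⁻¹ (δ w) ∈ U
  rw [MulAut.inv_apply_self]
  exact w.2

section main

variable (pGeoA : GeoAP.{u, v}) (pGeoB : GeoBP.{u, v}) (pGeoC : GeoCP.{u, v}) (pGlob : GlobP.{u})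
  (pSylA : SylAP.{u, v}) (pAlign : AlignP.{u}) (pTorus : TorusP.{u, v}) (pRigA : RigAP.{u, v})
  (pRigB : RigBP.{u, v}) (pRigC : RigCP.{u, v}) (pInj : InjP.{u, v})
  {G : Type u} [Group G] [Finite G] {U H A : Subgroup G} {K : Type v} [Field K] [Fintype K]
  {m : ℕ} {φ : K →+* K} {x : K → K → K → G} {e : Kˣ → G} {Φ : (K ≃+* K) →* MulAut G}
  (hax : Ax G U H A K m) (hsyl : SylNC G U H m) (hnh : NHC G H m) (hs : IsSimpleGroup G)
  (hp : APar G K φ x e) (hf : FPar G K x e Φ)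
  (hU : ∀ g : G, g ∈ U ↔ ∃ t u v, g = x t u v) (hH : ∀ g : G, g ∈ H ↔ ∃ s : Kˣ, g = e s)

include pGeoA pGeoB pGeoC pGlob pSylA pAlign pTorus pRigA pRigB pRigC hax hsyl hnh hs hp hf hU hH in
/-- every automorphism is inner times field -/
theorem decomp (α : MulAut G) : ∃ (g : G) (σ : K ≃+* K), α = MulAut.conj g * Φ σ := by
  obtain ⟨hnuB, hfpf, n, hn1, hn2⟩ := pGeoA G U H A K m hax hsyl hnh
  have hgeo : Geo G U H n :=
    { nuB := hnuB
      hN := hax.normH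
      fpf := hfpf
      n_not := hn1
      n_H := hn2
      trans := pGeoB G U H A K m hax hsyl n hn1
      stab := pGeoC G U H A K m hax hsyl n hn1 hn2 }
  obtain ⟨g, hgU, hgH⟩ := pAlign G U H n hgeo α (pSylA G U H A K m hax α)
  obtain ⟨β, hβdef⟩ : ∃ β : MulAut G, β = (MulAut.conj g)⁻¹ * α := ⟨_, rfl⟩
  have hβ : ∀ y, β y = g⁻¹ * α y * g := by
    intro y
    rw [hβdef, MulAut.mul_apply, MulAut.conj_inv_apply]
  have hβU : ∀ t u v, ∃ t' u' v', β (x t u v) = x t' u' v' := by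
    intro t u v
    have h := hgU (x t u v) ((hU _).mpr ⟨t, u, v, rfl⟩)
    rw [← hβ] at h
    exact (hU _).mp h
  have hβH : ∀ s : Kˣ, ∃ s' : Kˣ, β (e s) = e s' := by
    intro s
    have h := hgH (e s) ((hH _).mpr ⟨s, rfl⟩)
    rw [← hβ] at h
    exact (hH _).mp h
  obtain ⟨c, σ, hZ, hE⟩ := pTorus G K φ x e hp β hβU hβH
  obtain ⟨δ, hδdef⟩ : ∃ δ : MulAut G, δ = MulAut.conj (e c) * Φ σ := ⟨_, rfl⟩
  have hδx : ∀ t u v, δ (x t u v) =
      x ((c : K) ^ 2 / φ (c : K) ^ 3 * σ t) (φ (c : K) ^ 3 / (c : K) * σ u) ((c : K) * σ v) := by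
    intro t u v
    rw [hδdef, MulAut.mul_apply, hf.f_x, MulAut.conj_apply, hp.e_x, mul_assoc, mul_inv_cancel,
      mul_one]
  have hδe : ∀ s s' : Kˣ, (s' : K) = σ (s : K) → δ (e s) = e s' := by
    intro s s' hss
    rw [hδdef, MulAut.mul_apply, hf.f_e σ s s' hss, MulAut.conj_apply, ← hp.e_mul, mul_comm c s',
      hp.e_mul, mul_assoc, mul_inv_cancel, mul_one]
  obtain ⟨γ, hγdef⟩ : ∃ γ : MulAut G, γ = δ⁻¹ * β := ⟨_, rfl⟩
  have hγ : ∀ y w, β y = δ w → γ y = w := by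
    intro y w h
    rw [hγdef, MulAut.mul_apply, h, MulAut.inv_apply_self]
  have hγe : ∀ s : Kˣ, γ (e s) = e s := by
    intro s
    apply hγ
    have hss : ((Units.map (σ : K →* K) s : Kˣ) : K) = σ (s : K) := rfl
    rw [hE s _ hss, hδe s _ hss]
  have hγZ : ∀ v, γ (x 0 0 v) = x 0 0 v := by
    intro v
    apply hγ
    rw [hZ, hδx, map_zero, mul_zero, mul_zero]
  have hδU : ∀ u ∈ U, δ u ∈ U := by
    intro u hu
    obtain ⟨t, u', v, rfl⟩ := (hU u).mp hu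
    rw [hδx]
    exact (hU _).mpr ⟨_, _, _, rfl⟩
  have hδU' := maps_inv δ U hδU
  have hγU : ∀ t u v, ∃ t' u' v', γ (x t u v) = x t' u' v' := by
    intro t u v
    obtain ⟨t', u', v', h⟩ := hβU t u v
    have h2 : γ (x t u v) ∈ U := by
      rw [hγdef, MulAut.mul_apply, h]
      exact hδU' _ ((hU _).mpr ⟨_, _, _, rfl⟩)
    exact (hU _).mp h2
  obtain ⟨b, d, hb, hd⟩ := pRigA G K φ x e hp γ hγU hγe hγZ
  obtain ⟨hb1, hd1⟩ := pRigB G K φ x e hp γ hγZ b d hb hd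
  subst hb1
  subst hd1
  have hγA : ∀ u v, γ (x 0 u v) = x 0 u v := by
    intro u v
    rw [hd, one_mul]
  have hγU1 : ∀ t u v, ∃ u' v', γ (x t u v) = x t u' v' := by
    intro t u v
    obtain ⟨u', v', h⟩ := hb t u v
    exact ⟨u', v', by rw [h, one_mul]⟩
  have hγfix := pRigC G K φ x e hp γ hγe hγA hγU1
  have hγ1 : γ = 1 := by
    apply pGlob G U H n hgeo hs γ
    · intro u hu
      obtain ⟨t, u', v, rfl⟩ := (hU u).mp hu
      exact hγfix t u' v
    · intro h hh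
      obtain ⟨s, rfl⟩ := (hH h).mp hh
      exact hγe s
  have hβδ : β = δ := by
    rw [hγdef] at hγ1
    exact (inv_mul_eq_one.mp hγ1).symm
  refine ⟨g * e c, σ, ?_⟩
  have hα : α = MulAut.conj g * β := by
    rw [hβdef, mul_inv_cancel_left]
  rw [hα, hβδ, hδdef, map_mul, mul_assoc]

include pGeoA pInj hax hsyl hnh hp hf hU hH in
/-- a field automorphism that is inner is trivial -/
theorem inj (σ : K ≃+* K) (hσ : Φ σ ∈ Cfsg.Inn G) : σ = 1 := by
  obtain ⟨hnuB, -, -⟩ := pGeoA G U H A K m hax hsyl hnh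
  obtain ⟨g, hg⟩ := hσ
  refine pInj G K φ x e hp Φ hf ?_ σ g hg.symm
  intro g' hg'
  have h1 : NU U g' := by
    intro u hu
    obtain ⟨t, u', v, rfl⟩ := (hU u).mp hu
    obtain ⟨a, b, c, h⟩ := hg' t u' v
    rw [h]
    exact (hU _).mpr ⟨_, _, _, rfl⟩
  obtain ⟨u, hu, h, hh, rfl⟩ := hnuB g' h1
  obtain ⟨t, u', v, rfl⟩ := (hU u).mp hu
  obtain ⟨s, rfl⟩ := (hH h).mp hh
  exact ⟨t, u', v, s, rfl⟩

include pGeoA pGeoB pGeoC pGlob pSylA pAlign pTorus pRigA pRigB pRigC pInj hax hsyl hnh hs hp hf hU hH in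
/-- the order of the outer automorphism group -/
theorem card_out (pCard : CardP.{v}) : Nat.card (Cfsg.Out G) = 2 * m + 1 := by
  rw [← pCard K m hax.cardK]
  exact card_out_eq Φ
    (decomp pGeoA pGeoB pGeoC pGlob pSylA pAlign pTorus pRigA pRigB pRigC hax hsyl hnh hs hp hf
      hU hH)
    (inj pGeoA pInj hax hsyl hnh hp hf hU hH)

end main

end Cfsg.Agent.Lib.Helper42.ReeAutAsm
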