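import Mathlib
import Cfsg.Agent.Lib.Helper18.Ree27
import Cfsg.Agent.Lib.Helper36.ChevBC

/-!
# Automorphisms of the small Ree group: the field automorphisms (statement file, S2127)

`FLDA`: the entrywise action of a field automorphism on `GL₇(K)` restricts to an automorphism
of `twistedG2 K e`.  `FLDB`: its effect on the matrices of `reeU φ t u v` and `eta φ s`.
-/

set_option autoImplicit false

namespace Cfsg.Agent.Lib.Helper42.ReeAutFStmt

open Cfsg Cfsg.Lie

universe v

/-- FLDA: the field automorphisms act on `twistedG2 K e` entrywise -/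
def FldAP : Prop :=
  ∀ (K : Type v) [Field K] (e : ℕ),
    ∃ Φ : (K ≃+* K) →* MulAut ↥(twistedG2 K e),
      ∀ (σ : K ≃+* K) (g : ↥(twistedG2 K e)),
        (((Φ σ g : ↥(twistedG2 K e)) : GL chevG2.Idx K) : Matrix chevG2.Idx chevG2.Idx K) =
          ((g : GL chevG2.Idx K) : Matrix chevG2.Idx chevG2.Idx K).map σ

/-- FLDB: the entrywise action on the parametrized elements of `U¹` and `H¹` -/
def FldBP : Prop :=
  ∀ (K : Type v) [Field K] [Fintype K] (m : ℕ) (φ : K →+* K),
    Fintype.card K = 3 ^ (2 * m + 1) → (∀ a, φ a = a ^ 3 ^ m) → ∀ σ : K ≃+* K,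
      (∀ t u v : K,
        ((Cfsg.Agent.Lib.Helper18.Ree2.reeU φ t u v : GL chevG2.Idx K) :
            Matrix chevG2.Idx chevG2.Idx K).map σ =
          ((Cfsg.Agent.Lib.Helper18.Ree2.reeU φ (σ t) (σ u) (σ v) : GL chevG2.Idx K) :
            Matrix chevG2.Idx chevG2.Idx K)) ∧
      (∀ s : K, s ≠ 0 →
        ((Cfsg.Agent.Lib.Helper18.Ree7.eta φ s : GL chevG2.Idx K) :
            Matrix chevG2.Idx chevG2.Idx K).map σ =
          ((Cfsg.Agent.Lib.Helper18.Ree7.eta φ (σ s) : GL chevG2.Idx K) :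
            Matrix chevG2.Idx chevG2.Idx K))

end Cfsg.Agent.Lib.Helper42.ReeAutFStmt
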