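import Mathlib
import Cfsg.Agent.Lib.Helper42.ReeAutFStmt

/-!
# Piece FLDA of S2127: field automorphisms act on `twistedG2 K e` entrywise
-/

set_option autoImplicit false

namespace Cfsg.Agent.Lib.Helper42.ReeAutFLDA

open Cfsg Cfsg.Lie Cfsg.Agent.Lib.Helper36.ChevBC

universe v

variable {K : Type v} [Field K]

theorem map_reeWordU (σ : K →+* K) (e : ℕ) (t u v : K) :
    (reeWordU e t u v).map (fun p => (p.1, σ p.2)) = reeWordU e (σ t) (σ u) (σ v) := by
  simp [reeWordU, map_pow, map_add]

theorem map_reeWordV (σ : K →+* K) (e : ℕ) (t u v : K) :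
    (reeWordV e t u v).map (fun p => (p.1, σ p.2)) = reeWordV e (σ t) (σ u) (σ v) := by
  simp [reeWordV, reeWordU, ChevalleyDatum.negWord, map_pow, map_add, map_neg]

theorem glMap_mem (σ : K →+* K) (e : ℕ) {g : GL chevG2.Idx K} (hg : g ∈ twistedG2 K e) :
    Matrix.GeneralLinearGroup.map σ g ∈ twistedG2 K e := by
  have h : twistedG2 K e ≤ (twistedG2 K e).comap (Matrix.GeneralLinearGroup.map σ) := by
    have e1 : twistedG2 K e = Subgroup.closure {g : GL chevG2.Idx K | ∃ w ∈ g2Words K e,
        (g : Matrix chevG2.Idx chevG2.Idx K) = chevG2.wordMat K w} := rfl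
    rw [e1, Subgroup.closure_le]
    rintro g ⟨w, ⟨t, u, v, hw⟩, hg⟩
    rw [SetLike.mem_coe, Subgroup.mem_comap]
    apply Subgroup.subset_closure
    refine ⟨w.map (fun p => (p.1, σ p.2)), ?_, ?_⟩
    · rcases hw with rfl | rfl
      · exact ⟨σ t, σ u, σ v, Or.inl (map_reeWordU σ e t u v)⟩
      · exact ⟨σ t, σ u, σ v, Or.inr (map_reeWordV σ e t u v)⟩
    · rw [coe_glMap, hg, wordMat_map]
  exact h hg

/-- the field automorphism as an automorphism of the twisted group -/
noncomputable def fieldAut (e : ℕ) (σ : K ≃+* K) : MulAut ↥(twistedG2 K e) where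
  toFun := fun g => ⟨Matrix.GeneralLinearGroup.map (σ : K →+* K) g, glMap_mem _ e g.2⟩
  invFun := fun g => ⟨Matrix.GeneralLinearGroup.map (σ.symm : K →+* K) g, glMap_mem _ e g.2⟩
  left_inv := fun g => by
    apply Subtype.ext
    apply Units.ext
    ext i j
    simp
  right_inv := fun g => by
    apply Subtype.ext
    apply Units.ext
    ext i j
    simp
  map_mul' := fun a b => by
    apply Subtype.ext
    simp [map_mul]

theorem coe_fieldAut (e : ℕ) (σ : K ≃+* K) (g : ↥(twistedG2 K e)) :
    (((fieldAut e σ g : ↥(twistedG2 K e)) : GL chevG2.Idx K) : Matrix chevG2.Idx chevG2.Idx K) =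
      ((g : GL chevG2.Idx K) : Matrix chevG2.Idx chevG2.Idx K).map σ := rfl

theorem main : Cfsg.Agent.Lib.Helper42.ReeAutFStmt.FldAP.{v} := by
  intro K _ e
  refine ⟨{ toFun := fieldAut e, map_one' := ?_, map_mul' := ?_ }, ?_⟩
  · apply MulEquiv.ext
    intro g
    apply Subtype.ext
    apply Units.ext
    rw [coe_fieldAut]
    ext i j
    simp
  · intro σ τ
    apply MulEquiv.ext
    intro g
    apply Subtype.ext
    apply Units.ext
    rw [MulAut.mul_apply, coe_fieldAut, coe_fieldAut, coe_fieldAut]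
    ext i j
    simp
  · intro σ g
    exact coe_fieldAut e σ g

end Cfsg.Agent.Lib.Helper42.ReeAutFLDA
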