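import Mathlib
import Cfsg.Agent.Lib.Helper42.ReeAutFStmt
import Cfsg.Agent.Lib.Helper42.ReeAutFLDA

/-!
# Piece FLDB of S2127: the entrywise field automorphism on `reeU φ t u v` and `eta φ s`
-/

set_option autoImplicit false

namespace Cfsg.Agent.Lib.Helper42.ReeAutFLDB

open Cfsg Cfsg.Lie Cfsg.Agent.Lib.Helper36.ChevBC

universe v

theorem main : Cfsg.Agent.Lib.Helper42.ReeAutFStmt.FldBP.{v} := by
  intro K _ _ m φ hK hφ σ
  have := Cfsg.Agent.Lib.Helper18.Ree4.charP3 hK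
  have hcomm : ∀ a : K, σ (φ a) = φ (σ a) := by
    intro a
    rw [hφ, hφ, map_pow]
  constructor
  · intro t u v
    rw [← Cfsg.Agent.Lib.Helper18.Ree4.wg_reeWordU hφ t u v,
      ← Cfsg.Agent.Lib.Helper18.Ree4.wg_reeWordU hφ (σ t) (σ u) (σ v),
      Cfsg.Agent.Lib.Helper18.Ree1.coe_wg, Cfsg.Agent.Lib.Helper18.Ree1.coe_wg]
    have h := wordMat_map (σ : K →+* K) chevG2 (reeWordU (3 ^ m) t u v)
    rw [Cfsg.Agent.Lib.Helper42.ReeAutFLDA.map_reeWordU] at h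
    exact h
  · intro s hs
    unfold Cfsg.Agent.Lib.Helper18.Ree7.eta
    rw [Units.val_mul, Units.val_mul, Cfsg.Agent.Lib.Helper18.Ree5.coe_hx,
      Cfsg.Agent.Lib.Helper18.Ree5.coe_hx, Cfsg.Agent.Lib.Helper18.Ree5.coe_hx,
      Cfsg.Agent.Lib.Helper18.Ree5.coe_hx, Matrix.map_mul]
    have h1 := hMat_map (σ : K →+* K) chevG2 7 (φ s)
    have h2 := hMat_map (σ : K →+* K) chevG2 6 s
    have e1 : (σ : K →+* K) (φ s) = φ (σ s) := hcomm s
    rw [e1] at h1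
    exact congrArg₂ (· * ·) h1 h2

end Cfsg.Agent.Lib.Helper42.ReeAutFLDB
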