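import Mathlib
import Cfsg.Agent.Lib.Helper42.ReeAutStmt
import Cfsg.Agent.Lib.Helper2.ReeAutGEOC

/-!
# Piece GLOB of S2127: an automorphism fixing `U` and `H` pointwise is trivial
-/

set_option autoImplicit false

namespace Cfsg.Agent.Lib.Helper42.ReeAutGLOB

open Cfsg.Agent.Lib.Helper42.ReeAutStmt Cfsg.Agent.Lib.Helper2.ReeAutGEOC

universe u

theorem main : GlobP.{u} := by
  intro G _ _ U H n hgeo hs γ hγU hγH
  have F0 : ∀ g, NU U g → γ g = g := by
    intro g hg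
    obtain ⟨u, hu, h, hh, rfl⟩ := hgeo.nuB g hg
    rw [map_mul, hγU u hu, hγH h hh]
  have F1 : ¬ NU U (γ n) := by
    intro h
    have h2 := F0 (γ n) h
    have h3 : γ n = n := γ.injective h2
    rw [h3] at h
    exact hgeo.n_not h
  obtain ⟨u, hu, hb⟩ := (hgeo.trans (γ n)).resolve_left F1
  have hu1 : u = 1 := by
    apply hgeo.fpf u hu
    intro h hh
    apply hgeo.stab
    · exact NU_mul (NU_mul (NU_of_mem (U.inv_mem hu)) (hgeo.hN h hh)) (NU_of_mem hu)
    · have e1 : n⁻¹ * (u⁻¹ * h * u) * n =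
          (n⁻¹ * u⁻¹ * γ n) * ((γ n)⁻¹ * h * γ n) * (n⁻¹ * u⁻¹ * γ n)⁻¹ := by group
      rw [e1]
      have e2 : (γ n)⁻¹ * h * γ n = n⁻¹ * h * n := by
        have h5 := hγH _ (hgeo.n_H h hh)
        rw [map_mul, map_mul, map_inv, hγH h hh] at h5
        exact h5
      rw [e2]
      exact NU_mul (NU_mul hb (hgeo.hN _ (hgeo.n_H h hh))) (NU_inv hb)
  subst hu1
  have hb' : NU U (n⁻¹ * γ n) := by
    have e : n⁻¹ * (1 : G)⁻¹ * γ n = n⁻¹ * γ n := by group
    rwa [e] at hb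
  have F2 : ∀ g, NU U (g⁻¹ * γ g) := by
    intro g
    rcases hgeo.trans g with hg | ⟨u, hu, hg⟩
    · rw [F0 g hg, inv_mul_cancel]
      exact NU_of_mem U.one_mem
    · have hγb : γ (n⁻¹ * u⁻¹ * g) = n⁻¹ * u⁻¹ * g := F0 _ hg
      have h6 : γ g = u * γ n * (n⁻¹ * u⁻¹ * g) := by
        have h1 : g = u * n * (n⁻¹ * u⁻¹ * g) := by group
        calc γ g = γ (u * n * (n⁻¹ * u⁻¹ * g)) := by rw [← h1]
          _ = u * γ n * (n⁻¹ * u⁻¹ * g) := by rw [map_mul, map_mul, hγU u hu, hγb]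
      have e1 : g⁻¹ * γ g = (n⁻¹ * u⁻¹ * g)⁻¹ * (n⁻¹ * γ n) * (n⁻¹ * u⁻¹ * g) := by
        rw [h6]; group
      rw [e1]
      exact NU_mul (NU_mul (NU_inv hg) hb') hg
  let M : Subgroup G :=
    { carrier := {c | ∀ g, NU U (g⁻¹ * c * g)}
      mul_mem' := by
        intro a b ha hb g
        have e : g⁻¹ * (a * b) * g = (g⁻¹ * a * g) * (g⁻¹ * b * g) := by group
        rw [e]
        exact NU_mul (ha g) (hb g)
      one_mem' := by
        intro g
        have e : g⁻¹ * 1 * g = 1 := by group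
        rw [e]
        exact NU_of_mem U.one_mem
      inv_mem' := by
        intro a ha g
        have e : g⁻¹ * a⁻¹ * g = (g⁻¹ * a * g)⁻¹ := by group
        rw [e]
        exact NU_inv (ha g) }
  have hMn : M.Normal := by
    constructor
    intro c hc k g
    have e : g⁻¹ * (k * c * k⁻¹) * g = (k⁻¹ * g)⁻¹ * c * (k⁻¹ * g) := by group
    rw [e]
    exact hc _
  have hM : M = ⊥ := by
    rcases hs.eq_bot_or_eq_top_of_normal M hMn with h | h
    · exact h
    · exfalso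
      have h7 : n ∈ M := h ▸ Subgroup.mem_top n
      have h8 := h7 1
      have e : (1 : G)⁻¹ * n * 1 = n := by group
      rw [e] at h8
      exact hgeo.n_not h8
  apply MulEquiv.ext
  intro x
  have hx : x⁻¹ * γ x ∈ M := by
    intro g
    have e : g⁻¹ * (x⁻¹ * γ x) * g = ((x * g)⁻¹ * γ (x * g)) * (g⁻¹ * γ g)⁻¹ := by
      rw [map_mul]; group
    rw [e]
    exact NU_mul (F2 _) (NU_inv (F2 g))
  rw [hM, Subgroup.mem_bot] at hx
  rw [MulAut.one_apply]
  exact (inv_mul_eq_one.mp hx).symm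

end Cfsg.Agent.Lib.Helper42.ReeAutGLOB
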